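import Cfsg.Agent.HNCover.Base
import Cfsg.Agent.HNCover.PermData
import Cfsg.Agent.Sporadic.HSRankThreeLeech

/-!
# The action on 100 points: the image is HS:2
-/

set_option autoImplicit false
set_option maxRecDepth 100000

namespace Cfsg.Agent.HNCover

open Cfsg.Agent.CosetCert Cfsg.Agent.CosetEnum MulAction

theorem sigma_tab : ∀ l ∈ [1, 2, 3, 4, 5], ∀ i : Fin 100, (sigma l i : ℕ) = ptab l i := by
  decide +kernel

theorem sigma_id {w : List ℕ} (hl : ∀ l ∈ w, l ∈ [1, 2, 3, 4, 5])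
    (h : ∀ i < 100, runWord ptab w i = i) : pval sigma w = 1 :=
  Equiv.ext fun i => Fin.ext ((runWord_pval ptab [1, 2, 3, 4, 5] sigma sigma_tab w hl i).trans (h i i.2))

theorem checked_words : ∀ w ∈ absWords ++ [[1, 2], [3, 4]],
    (∀ l ∈ w, l ∈ [1, 2, 3, 4, 5]) ∧ ∀ i < 100, runWord ptab w i = i := by
  decide +kernel

theorem let3_sigma {l : ℕ} (hl : l ∈ [1, 2, 3, 4, 5]) :
    let3 (sigma 1)⁻¹ (sigma 3)⁻¹ (sigma 5)⁻¹ l = (sigma l)⁻¹ := by
  have h12 : sigma 2 * sigma 1 = 1 := by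
    simpa [pval] using sigma_id (checked_words [1, 2] (by simp)).1 (checked_words [1, 2] (by simp)).2
  have h34 : sigma 4 * sigma 3 = 1 := by
    simpa [pval] using sigma_id (checked_words [3, 4] (by simp)).1 (checked_words [3, 4] (by simp)).2
  simp only [List.mem_cons, List.not_mem_nil, or_false] at hl
  rcases hl with rfl | rfl | rfl | rfl | rfl
  · rfl
  · show ((sigma 1)⁻¹)⁻¹ = _
    rw [eq_inv_of_mul_eq_one_left h12]
  · rfl
  · show ((sigma 3)⁻¹)⁻¹ = _
    rw [eq_inv_of_mul_eq_one_left h34]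
  · rfl

theorem evalw_let3 {w : List ℕ} (hl : ∀ l ∈ w, l ∈ [1, 2, 3, 4, 5]) :
    evalw (let3 (sigma 1)⁻¹ (sigma 3)⁻¹ (sigma 5)⁻¹) w = (pval sigma w)⁻¹ := by
  rw [evalw, List.map_congr_left fun l h => let3_sigma (hl l h)]
  have := evalw_inv (fun l => (sigma l)⁻¹) w
  simp only [inv_inv] at this
  rw [this, inv_inv]
  rfl

/-- The action of the abstract group. -/
noncomputable def phi : Abs →* Equiv.Perm (Fin 100) :=
  homOf (sigma 1)⁻¹ (sigma 3)⁻¹ (sigma 5)⁻¹ fun w hw => by
    obtain ⟨hl, hi⟩ := checked_words w (List.mem_append_left _ hw)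
    rw [evalw_let3 hl, sigma_id hl hi, inv_one]

theorem phi_eA {l : ℕ} (hl : l ∈ [1, 2, 3, 4, 5]) : phi (eA l) = (sigma l)⁻¹ := by
  rw [phi, homOf_eA, let3_sigma hl]

theorem sigma_mem : ∀ l ∈ [1, 2, 3, 4, 5], sigma l ∈ phi.range := fun l hl =>
  ⟨(eA l)⁻¹, by rw [map_inv, phi_eA hl, inv_inv]⟩

theorem pval_mem_range : ∀ w : List ℕ, (∀ l ∈ w, l ∈ [1, 2, 3, 4, 5]) →
    pval sigma w ∈ phi.range
  | [], _ => one_mem _
  | l :: w, h => by
    rw [pval]
    exact mul_mem (pval_mem_range w fun m hm => h m (List.mem_cons_of_mem _ hm))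
      (sigma_mem l (h l List.mem_cons_self))

theorem sign_sigma : ∀ l ∈ [1, 2, 3, 4, 5],
    Equiv.Perm.sign (sigma l) = if l = 5 then -1 else 1 := by
  intro l hl
  have h1 : ∀ p ∈ swl.getD l [], p.1 ≠ p.2 := fun p hp e => by
    have h := (by decide +kernel : ∀ l ∈ [1, 2, 3, 4, 5],
      ((swl.getD l []).all fun p => !(Nat.beq p.1.val p.2.val)) = true) l hl
    have h' := List.all_eq_true.1 h p hp
    simp [e] at h'
  have h2 := (by decide +kernel : ∀ l ∈ [1, 2, 3, 4, 5],
    (swl.getD l []).length % 2 = if l = 5 then 1 else 0) l hl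
  rw [sigma, Design.sign_swaps _ h1, Int.units_pow_eq_pow_mod_two, h2]
  split <;> simp

theorem sign_pval : ∀ w : List ℕ, (∀ l ∈ w, l ∈ [1, 2, 3, 4, 5]) →
    Equiv.Perm.sign (pval sigma w) = (-1) ^ w.count 5
  | [], _ => by simp [pval]
  | l :: w, h => by
    rw [pval, map_mul, sign_pval w (fun m hm => h m (List.mem_cons_of_mem _ hm)),
      sign_sigma l (h l List.mem_cons_self), List.count_cons, pow_add]
    by_cases h5 : l = 5 <;> simp [h5]

/-- The image. -/
noncomputable def img : Subgroup (Equiv.Perm (Fin 100)) := phi.range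

/-- Its even part. -/
noncomputable def evenImg : Subgroup (Equiv.Perm (Fin 100)) := img ⊓ Equiv.Perm.sign.ker

theorem pval_mem_even {w : List ℕ} (hl : ∀ l ∈ w, l ∈ [1, 2, 3, 4, 5]) (he : w.count 5 % 2 = 0) :
    pval sigma w ∈ evenImg := by
  refine ⟨pval_mem_range w hl, ?_⟩
  show Equiv.Perm.sign (pval sigma w) = 1
  rw [sign_pval w hl, Int.units_pow_eq_pow_mod_two, he, pow_zero]

theorem adj_checked : ∀ l ∈ [1, 3, 5], allB (fun n => Nat.ble 10000 n ||
    (adjB (ptab l (n / 100)) (ptab l (n % 100)) == adjB (n / 100) (n % 100))) 14 0 = true := by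
  decide +kernel

theorem adj_gens (l : ℕ) (hl : l ∈ [1, 3, 5]) (i : ℕ) (hi : i < 100) (j : ℕ) (hj : j < 100) :
    adjB (ptab l i) (ptab l j) = adjB i j := by
  have h := allB_spec_zero (adj_checked l hl) (show 10000 ≤ 2 ^ 14 by norm_num)
    (show i * 100 + j < 10000 by omega)
  rw [Bool.or_eq_true] at h
  rcases h with h | h
  · exact absurd (Nat.le_of_ble_eq_true h) (by omega)
  · rw [beq_iff_eq, show (i * 100 + j) / 100 = i by omega, show (i * 100 + j) % 100 = j by omega] at h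
    exact h

/-- The automorphisms of the graph. -/
noncomputable def adjAut : Subgroup (Equiv.Perm (Fin 100)) where
  carrier := {g | ∀ i j : Fin 100, adjB (g i) (g j) = adjB i j}
  one_mem' := fun _ _ => rfl
  mul_mem' := fun {g h} hg hh i j => by
    rw [Equiv.Perm.mul_apply, Equiv.Perm.mul_apply, hg, hh]
  inv_mem' := fun {g} hg i j => by
    rw [← hg (g⁻¹ i) (g⁻¹ j)]
    simp

theorem img_le_adjAut : img ≤ adjAut := by
  rw [img, MonoidHom.range_eq_map, ← closure_gens, MonoidHom.map_closure, Subgroup.closure_le]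
  rintro _ ⟨a, ha, rfl⟩
  have key : ∀ l ∈ [1, 3, 5], phi (eA l) ∈ adjAut := fun l hl => by
    have hl5 : l ∈ [1, 2, 3, 4, 5] := by
      revert hl; revert l; decide
    rw [phi_eA hl5]
    refine Subgroup.inv_mem _ fun i j => ?_
    rw [sigma_tab l hl5 i, sigma_tab l hl5 j]
    exact adj_gens l hl i i.2 j j.2
  simp only [Set.mem_insert_iff, Set.mem_singleton_iff] at ha
  rcases ha with rfl | rfl | rfl
  · exact key 1 (by simp)
  · exact key 3 (by simp)
  · exact key 5 (by simp)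

/-- The first point. -/
def pt0 : Fin 100 := 0

theorem trans_checked : ∀ i < 100, (∀ l ∈ transW.getD i [], l ∈ [1, 2, 3, 4, 5]) ∧
    (transW.getD i []).count 5 % 2 = 0 ∧ runWord ptab (transW.getD i []) 0 = i := by
  decide +kernel

theorem near_checked : (∀ k < 22, (∀ l ∈ nearW.getD k [], l ∈ [1, 2, 3, 4, 5]) ∧
    (nearW.getD k []).count 5 % 2 = 0 ∧ runWord ptab (nearW.getD k []) 0 = 0 ∧
    runWord ptab (nearW.getD k []) (ptB : ℕ) = nears.getD k 0) ∧ nears.length = 22 ∧ nears.Nodup ∧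
    (∀ j < 100, adjB 0 j = true ↔ j ∈ nears) := by
  decide +kernel

theorem far_checked : (∀ k < 77, (∀ l ∈ farW.getD k [], l ∈ [1, 2, 3, 4, 5]) ∧
    (farW.getD k []).count 5 % 2 = 0 ∧ runWord ptab (farW.getD k []) 0 = 0 ∧
    runWord ptab (farW.getD k []) (ptC : ℕ) = fars.getD k 0) ∧ fars.length = 77 ∧ fars.Nodup ∧
    (∀ j < 100, (adjB 0 j = false ∧ j ≠ 0) ↔ j ∈ fars) := by
  decide +kernel

theorem exists_trans (x : Fin 100) : ∃ g : evenImg, g • pt0 = x := by
  obtain ⟨hl, he, h⟩ := trans_checked x x.2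
  exact ⟨⟨_, pval_mem_even hl he⟩,
    Fin.ext ((runWord_pval ptab [1, 2, 3, 4, 5] sigma sigma_tab _ hl pt0).trans h)⟩

/-- The orbit of a point under the stabiliser of the first point, from words. -/
theorem orbit_eq (q : Fin 100) (W : List (List ℕ)) (L : List ℕ) (n : ℕ) (p : ℕ → Prop)
    (hW : ∀ k < n, (∀ l ∈ W.getD k [], l ∈ [1, 2, 3, 4, 5]) ∧ (W.getD k []).count 5 % 2 = 0 ∧
      runWord ptab (W.getD k []) 0 = 0 ∧ runWord ptab (W.getD k []) (q : ℕ) = L.getD k 0)
    (hn : L.length = n) (hd : L.Nodup) (hp : ∀ j < 100, p j ↔ j ∈ L)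
    (hq : p q) (hinv : ∀ g : evenImg, g • pt0 = pt0 → ∀ j : Fin 100, p j → p (g • j : Fin 100)) :
    orbit (stabilizer evenImg pt0) q = {j : Fin 100 | p j} ∧
      (orbit (stabilizer evenImg pt0) q).ncard = n := by
  have e : orbit (stabilizer evenImg pt0) q = {j : Fin 100 | p j} := by
    ext j
    constructor
    · rintro ⟨g, rfl⟩
      exact hinv g.1 g.2 q hq
    · intro hj
      obtain ⟨k, hk, hjk⟩ := List.getElem_of_mem ((hp j j.2).1 hj)
      obtain ⟨hl, he, h0, hb⟩ := hW k (hn ▸ hk)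
      rw [List.getD_eq_getElem _ _ hk, hjk] at hb
      refine ⟨⟨⟨_, pval_mem_even hl he⟩, ?_⟩, ?_⟩
      · exact Fin.ext ((runWord_pval ptab [1, 2, 3, 4, 5] sigma sigma_tab _ hl pt0).trans h0)
      · exact Fin.ext ((runWord_pval ptab [1, 2, 3, 4, 5] sigma sigma_tab _ hl q).trans hb)
  refine ⟨e, ?_⟩
  have himg : Fin.val '' {j : Fin 100 | p j} = {j | j ∈ L ∧ j < 100} := by
    ext j
    constructor
    · rintro ⟨i, hi, rfl⟩
      exact ⟨(hp i i.2).1 hi, i.2⟩
    · rintro ⟨hj, h100⟩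
      exact ⟨⟨j, h100⟩, (hp j h100).2 hj, rfl⟩
  have hlt : ∀ j ∈ L, j < 100 := by
    intro j hj
    obtain ⟨k, hk, rfl⟩ := List.getElem_of_mem hj
    obtain ⟨hl, -, -, hb⟩ := hW k (hn ▸ hk)
    rw [List.getD_eq_getElem _ _ hk] at hb
    rw [← hb, ← runWord_pval ptab [1, 2, 3, 4, 5] sigma sigma_tab _ hl q]
    exact Fin.is_lt _
  rw [e, ← Set.ncard_image_of_injective _ Fin.val_injective, himg,
    show {j | j ∈ L ∧ j < 100} = (L.toFinset : Set ℕ) by
      ext j; simp; exact hlt j,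
    Set.ncard_coe_finset, List.toFinset_card_of_nodup hd, hn]

theorem adj_inv (g : evenImg) (i j : Fin 100) :
    adjB (g • i : Fin 100) (g • j : Fin 100) = adjB i j :=
  img_le_adjAut g.2.1 i j

theorem near_orbit : orbit (stabilizer evenImg pt0) ptB = {j : Fin 100 | adjB 0 j = true} ∧
    (orbit (stabilizer evenImg pt0) ptB).ncard = 22 := by
  obtain ⟨h1, h2, h3, h4⟩ := near_checked
  refine orbit_eq ptB nearW nears 22 (fun j => adjB 0 j = true) h1 h2 h3 h4 (by decide +kernel)
    fun g hg j hj => ?_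
  have := adj_inv g pt0 j
  rw [hg] at this
  exact this.trans hj

theorem far_orbit : (orbit (stabilizer evenImg pt0) ptC).ncard = 77 := by
  obtain ⟨h1, h2, h3, h4⟩ := far_checked
  refine (orbit_eq ptC farW fars 77 (fun j => adjB 0 j = false ∧ j ≠ 0) h1 h2 h3 h4
    (by decide +kernel) fun g hg j hj => ?_).2
  have := adj_inv g pt0 j
  rw [hg] at this
  refine ⟨this.trans hj.1, fun h0 => hj.2 ?_⟩
  have e : g • j = g • pt0 := by rw [hg]; exact Fin.ext h0
  exact congrArg Fin.val (MulAction.injective g e)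

theorem act : HSRank.Act evenImg (Fin 100) pt0 ptB ptC :=
  ⟨Nat.card_fin 100, exists_trans, near_orbit.2, far_orbit⟩

theorem rel_iff (x y : Fin 100) : HSRank.Rel evenImg pt0 ptB x y ↔ adjB x y = true := by
  constructor
  · rintro ⟨g, rfl, rfl⟩
    rw [adj_inv g pt0 ptB]
    have : ptB ∈ orbit (stabilizer evenImg pt0) ptB := mem_orbit_self _
    rw [near_orbit.1] at this
    exact this
  · intro h
    obtain ⟨g, rfl⟩ := exists_trans x
    obtain ⟨z, rfl⟩ : ∃ z, g • z = y := ⟨g⁻¹ • y, smul_inv_smul g y⟩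
    rw [HSRank.rel_smul, HSRank.rel_base_iff, near_orbit.1]
    rw [adj_inv g pt0 z] at h
    exact h

theorem chain_valid : ChainValid 100 ptab [1, 2, 3, 4, 5] [] levs := by
  simp only [levs, ChainValid]
  refine ⟨?_, ?_, ?_, ?_, ?_, ?_, ?_, ?_, ?_, ?_, trivial⟩ <;> decide +kernel

theorem card_img : Nat.card img = 88704000 := by
  classical
  refine le_antisymm ?_ ?_
  · obtain ⟨hS, hc, φ, -⟩ := Graphs.reconstruct act.srg pt0
    let Γ := HSRank.graph evenImg pt0 ptB
    have hfin : Finite (Γ ≃g Γ) :=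
      Finite.of_injective (fun f : Γ ≃g Γ => (f : Fin 100 → Fin 100)) DFunLike.coe_injective
    have hA : Nat.card (Γ ≃g Γ) = 88704000 := by
      rw [← Graphs.card_aut_graph hS hc]
      exact Nat.card_congr (HSRank.autCongr φ).symm.toEquiv
    let f : img → (Γ ≃g Γ) := fun g =>
      { toEquiv := g.1
        map_rel_iff' := by
          intro x y
          rw [act.adj_iff, act.adj_iff, rel_iff, rel_iff, img_le_adjAut g.2 x y] }
    rw [← hA]
    exact Nat.card_le_card_of_injective f fun g h e =>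
      Subtype.ext (Equiv.ext fun x => DFunLike.congr_fun e x)
  · refine le_trans (le_of_eq ?_)
      (chainProd_le_card ptab [1, 2, 3, 4, 5] sigma sigma_tab img sigma_mem levs chain_valid)
    decide +kernel

theorem sign_range : (Equiv.Perm.sign.comp img.subtype).range = ⊤ := by
  rw [eq_top_iff]
  intro u _
  rcases Int.units_eq_one_or u with rfl | rfl
  · exact ⟨1, map_one _⟩
  · refine ⟨⟨sigma 5, sigma_mem 5 (by simp)⟩, ?_⟩
    show Equiv.Perm.sign (sigma 5) = -1
    rw [sign_sigma 5 (by simp)]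
    rfl

theorem card_evenImg : Nat.card evenImg = 44352000 := by
  have h := Subgroup.card_mul_index (Equiv.Perm.sign.comp img.subtype).ker
  rw [Subgroup.index_ker, sign_range, Subgroup.card_top, card_img,
    show Nat.card ℤˣ = 2 by simp [Nat.card_eq_fintype_card]] at h
  have e : (Equiv.Perm.sign.comp img.subtype).ker = evenImg.subgroupOf img := by
    ext g
    simp [evenImg, Subgroup.mem_subgroupOf]
  rw [e, Nat.card_congr (Subgroup.subgroupOfEquivOfLe (show evenImg ≤ img from inf_le_left)).toEquiv] at h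
  omega

theorem iso_hs : Spor.IsoHS evenImg := by
  haveI : IsPretransitive evenImg (Fin 100) := (isPretransitive_iff_base pt0).mpr exists_trans
  refine HSRank.isoHS act ?_
  have h := Subgroup.card_mul_index (stabilizer evenImg pt0)
  rw [index_stabilizer_of_transitive, Nat.card_fin, card_evenImg] at h
  omega

theorem eq_one_of_commute (c : Equiv.Perm (Fin 100)) (h : ∀ g ∈ evenImg, c * g = g * c) :
    c = 1 := by
  have h0 : c pt0 = pt0 := by
    have hfix : orbit (stabilizer evenImg pt0) (c pt0) = {c pt0} := by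
      refine Set.eq_singleton_iff_unique_mem.mpr ⟨mem_orbit_self _, ?_⟩
      rintro _ ⟨g, rfl⟩
      have e := Equiv.ext_iff.1 (h g.1.1 g.1.2) pt0
      rw [Equiv.Perm.mul_apply, Equiv.Perm.mul_apply] at e
      have hg : g.1.1 pt0 = pt0 := g.2
      rw [hg] at e
      exact e.symm
    rcases act.cases (c pt0) with hc | hc | hc
    · exact hc
    · exfalso
      rw [← orbit_eq_iff] at hc
      have := act.cardB
      rw [← hc, hfix, Set.ncard_singleton] at this
      omega
    · exfalso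
      rw [← orbit_eq_iff] at hc
      have := act.cardC
      rw [← hc, hfix, Set.ncard_singleton] at this
      omega
  refine Equiv.ext fun x => ?_
  obtain ⟨g, rfl⟩ := exists_trans x
  have e := Equiv.ext_iff.1 (h g.1 g.2) pt0
  rw [Equiv.Perm.mul_apply, Equiv.Perm.mul_apply, h0] at e
  exact e

end Cfsg.Agent.HNCover
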